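import Cfsg.Agent.H64.Inverted.Quot
import Cfsg.Agent.H28.BaerSuzuki
import Cfsg.Agent.H19.Cores
import Cfsg.Agent.H64.Zip.ConjIter

/-!
A finite group generated by the commutators with an automorphism of order two is bounded by a
function of the number of inverted elements of odd order.
-/

set_option autoImplicit false

namespace Cfsg.Agent.H64.Inverted

open Subgroup
open scoped commutatorElement

universe u

variable {G : Type u} [Group G] [Finite G]

theorem odd_card_of_abelian_normal (hcore : Cfsg.pCore 2 G = ⊥) (A : Subgroup G) [A.Normal]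
    (hc : ∀ a ∈ A, ∀ b ∈ A, a * b = b * a) : Odd (Nat.card A) := by
  by_contra he
  rw [Nat.not_odd_iff_even] at he
  obtain ⟨x, hx⟩ := exists_prime_orderOf_dvd_card' (G := A) 2 he.two_dvd
  let B : Subgroup G :=
    { carrier := {a | a ∈ A ∧ a * a = 1}
      one_mem' := ⟨A.one_mem, one_mul 1⟩
      mul_mem' := fun {a b} ha hb => ⟨A.mul_mem ha.1 hb.1, by
        calc a * b * (a * b) = a * (b * a) * b := by group
          _ = a * (a * b) * b := by rw [hc b hb.1 a ha.1]
          _ = a * a * (b * b) := by group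
          _ = 1 := by rw [ha.2, hb.2, one_mul]⟩
      inv_mem' := fun {a} ha => ⟨A.inv_mem ha.1, by rw [← mul_inv_rev, ha.2, inv_one]⟩ }
  have hBn : B.Normal := ⟨fun a ha g => ⟨(inferInstance : A.Normal).conj_mem a ha.1 g, by
    calc g * a * g⁻¹ * (g * a * g⁻¹) = g * (a * a) * g⁻¹ := by group
      _ = 1 := by rw [ha.2]; group⟩⟩
  have hBp : IsPGroup 2 B := fun b => ⟨1, Subtype.ext (by
    simpa [pow_two] using b.2.2)⟩
  have hle := Cfsg.Agent.H19.le_pCore hBn hBp
  rw [hcore] at hle
  have hxB : (x : G) ∈ B := ⟨x.2, by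
    rw [← pow_two, ← Subgroup.coe_pow, ← hx, pow_orderOf_eq_one, Subgroup.coe_one]⟩
  have hx1 : x = 1 := Subtype.ext (hle hxB)
  rw [hx1, orderOf_one] at hx
  omega

/-- Baer–Suzuki: without normal `2`-subgroups, `α` cannot move an invariant normal subgroup into
its `2`-elements. -/
theorem fixed_of_two_elements {α : MulAut G} (h2 : ∀ g, α (α g) = g)
    (hcore : Cfsg.pCore 2 G = ⊥) (M : Subgroup G) [M.Normal] (hM : ∀ x ∈ M, α x ∈ M)
    (htwo : ∀ g ∈ M, ∃ a : ℕ, orderOf (cm α g) = 2 ^ a) : ∀ g ∈ M, α g = g := by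
  haveI : Fact (Nat.Prime 2) := ⟨Nat.prime_two⟩
  let β : MulAut ↥M :=
    { toFun := fun x => ⟨α x, hM _ x.2⟩
      invFun := fun x => ⟨α x, hM _ x.2⟩
      left_inv := fun x => Subtype.ext (h2 _)
      right_inv := fun x => Subtype.ext (h2 _)
      map_mul' := fun x y => Subtype.ext (map_mul α _ _) }
  have hββ : β * β = 1 := MulEquiv.ext fun x => Subtype.ext (h2 _)
  let φ : ↥(zpowers β) →* MulAut ↥M := (zpowers β).subtype
  have : Finite (SemidirectProduct ↥M ↥(zpowers β) φ) :=
    Finite.of_equiv _ SemidirectProduct.equivProd.symm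
  let a : SemidirectProduct ↥M ↥(zpowers β) φ := SemidirectProduct.inr ⟨β, mem_zpowers β⟩
  let d : ↥M → ↥M := fun c => c * (β c)⁻¹
  have hconj : ∀ y : SemidirectProduct ↥M ↥(zpowers β) φ,
      y * a * y⁻¹ = SemidirectProduct.inl (d y.left) * a := by
    intro y
    have hc : Commute y.right ⟨β, mem_zpowers β⟩ := by
      obtain ⟨i, hi⟩ := mem_zpowers_iff.1 y.right.2
      exact Subtype.ext (by simpa [← hi] using ((Commute.refl β).zpow_left i).eq)
    have hc' : y.right * ⟨β, mem_zpowers β⟩ * y.right⁻¹ = (⟨β, mem_zpowers β⟩ : ↥(zpowers β)) := by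
      rw [hc.eq, mul_inv_cancel_right]
    refine SemidirectProduct.ext ?_ ?_
    · simp only [a, d, SemidirectProduct.mul_left, SemidirectProduct.mul_right,
        SemidirectProduct.inv_left, SemidirectProduct.left_inr, SemidirectProduct.right_inr,
        SemidirectProduct.left_inl, SemidirectProduct.right_inl, map_one, mul_one]
      rw [← MulAut.mul_apply, ← map_mul, hc', map_inv]
      rfl
    · simp only [a, SemidirectProduct.mul_right, SemidirectProduct.inv_right,
        SemidirectProduct.right_inr, SemidirectProduct.right_inl, one_mul]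
      exact hc'
  have haa : a * a = 1 := by
    rw [← map_mul]
    convert map_one (SemidirectProduct.inr (φ := φ))
    exact Subtype.ext hββ
  obtain ⟨P, hPn, hP, haP⟩ := Cfsg.Agent.H28.baer_suzuki_element (p := 2) a (fun y => by
    set t := SemidirectProduct.inl (φ := φ) (d y.left) with ht
    have hpa : IsPGroup 2 ↥(zpowers a) := by
      refine IsPGroup.of_card (n := if orderOf a = 1 then 0 else 1) ?_
      rw [Nat.card_zpowers]
      split_ifs with h
      · simpa using h
      · have : orderOf a ∣ 2 := orderOf_dvd_of_pow_eq_one (by rw [pow_two, haa])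
        simpa using ((Nat.dvd_prime Nat.prime_two).1 this).resolve_left h
    have hpt : IsPGroup 2 ↥(zpowers t) := by
      obtain ⟨i, hi⟩ := htwo _ y.left.2
      refine IsPGroup.of_card (n := i) ?_
      rw [Nat.card_zpowers, ht, orderOf_injective _ SemidirectProduct.inl_injective,
        ← Subgroup.orderOf_coe]
      exact hi
    have hat : a * t * a⁻¹ = t⁻¹ := by
      rw [ht, ← map_inv, ← SemidirectProduct.inl_aut, ← map_inv]
      congr 1
      refine Subtype.ext ?_
      show α ((y.left : G) * (α y.left)⁻¹) = ((y.left : G) * (α y.left)⁻¹)⁻¹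
      exact alpha_cm h2 _
    have hnorm : zpowers a ≤ normalizer ((zpowers t : Subgroup _) : Set _) := by
      rw [zpowers_le]
      refine Subgroup.mem_normalizer_iff_map_conj_eq.2 ?_
      rw [MonoidHom.map_zpowers]
      show zpowers (a * t * a⁻¹) = zpowers t
      rw [hat, zpowers_inv]
    refine (hpa.to_sup_of_normal_right' hpt hnorm).to_le ?_
    rw [closure_le]
    rintro z (rfl | rfl)
    · exact mem_sup_left (mem_zpowers a)
    · rw [hconj]
      exact mul_mem (mem_sup_right (mem_zpowers t)) (mem_sup_left (mem_zpowers a)))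
  intro g hg
  set P' := P.comap (SemidirectProduct.inl (φ := φ))
  have hP' : IsPGroup 2 P' :=
    hP.comap_of_injective _ SemidirectProduct.inl_injective
  haveI : P'.Normal := hPn.comap _
  have hd : d ⟨g, hg⟩ ∈ P' := by
    show SemidirectProduct.inl (d ⟨g, hg⟩) ∈ P
    have := P.mul_mem (hPn.conj_mem a haP (SemidirectProduct.inl ⟨g, hg⟩)) (P.inv_mem haP)
    rw [hconj] at this
    simpa using this
  haveI := Cfsg.Agent.H19.pCore_characteristic 2 ↥M
  have hle : (Cfsg.pCore 2 ↥M).map M.subtype ≤ Cfsg.pCore 2 G :=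
    Cfsg.Agent.H19.le_pCore inferInstance ((Cfsg.Agent.H19.pCore_isPGroup 2).map _)
  have : cm α g ∈ Cfsg.pCore 2 G :=
    hle ⟨d ⟨g, hg⟩, Cfsg.Agent.H19.le_pCore inferInstance hP' hd, rfl⟩
  rw [hcore, mem_bot, cm, mul_inv_eq_one] at this
  exact this.symm

/-- The reduction step when there is no normal `2`-subgroup. -/
theorem core_step {α : MulAut G} (h2 : ∀ g, α (α g) = g) (hgen : closure (invSet α) = ⊤)
    (hcore : Cfsg.pCore 2 G = ⊥) {k m : ℕ} (hk : Nat.card (fixSub α) ≤ k)
    (hm : (invSet α).ncard ≤ m) :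
    Nat.card G ≤ k * (k * m) ∨ ∃ M : Subgroup G, M.Normal ∧ (∀ x ∈ M, α x ∈ M) ∧
      Nat.card M ≤ k * m * (k * (k * m + k + m)).factorial ∧ ∃ v ∈ invSet α, v ∈ M ∧ v ≠ 1 := by
  classical
  have habel : ∀ A : Subgroup G, A.Normal → (∀ x ∈ A, α x ∈ A) →
      (∀ a ∈ A, ∀ b ∈ A, a * b = b * a) → Nat.card A ≤ k * m := fun A hAn hA hc =>
    (card_abelian_odd h2 A hA hc (haveI := hAn; odd_card_of_abelian_normal hcore A hc)).trans
      (Nat.mul_le_mul hk hm)
  have hZinv : ∀ x ∈ center G, α x ∈ center G := fun x hx => by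
    rw [mem_center_iff] at hx ⊢
    intro g
    rw [← h2 g, ← map_mul, ← map_mul, hx]
  have hZc : ∀ a ∈ center G, ∀ b ∈ center G, a * b = b * a := fun a ha b _ =>
    (mem_center_iff.1 ha b).symm
  have hZodd := odd_card_of_abelian_normal hcore (center G) hZc
  set W : Finset G :=
    (Set.toFinite ((((fixSub α : Subgroup G) : Set G) ∪ invSet α) \ center G)).toFinset with hWdef
  have hWmem : ∀ w, w ∈ W ↔ (w ∈ fixSub α ∨ w ∈ invSet α) ∧ w ∉ center G := fun w => by
    simp [hWdef]
  have hWcard : W.card ≤ k + m := by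
    rw [hWdef, ← Set.ncard_eq_toFinset_card _]
    refine (Set.ncard_le_ncard Set.sdiff_subset).trans ((Set.ncard_union_le _ _).trans ?_)
    refine Nat.add_le_add (le_trans (le_of_eq ?_) hk) hm
    rw [← Nat.card_coe_set_eq]; rfl
  have hcover : cm α '' (Set.univ : Set G) ⊆
      (center G : Set G) ∪ ⋃ w ∈ W, (centralizer ({w} : Set G) : Set G) := by
    rintro _ ⟨g, _, rfl⟩
    obtain ⟨u, v, huv, hu, hv, hvI, huinv, a, hua⟩ := split (alpha_cm h2 g)
    set y := cm α g
    have hcomm : ∀ z ∈ zpowers y, y * z = z * y := fun z hz => by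
      obtain ⟨i, rfl⟩ := mem_zpowers_iff.1 hz
      exact ((Commute.refl y).zpow_right i).eq
    by_cases hvZ : v ∈ center G
    · rcases a with _ | a
      · left
        have : u = 1 := by rw [← orderOf_eq_one_iff, hua, pow_zero]
        rw [← huv, this, one_mul]
        exact hvZ
      · right
        set z := u ^ 2 ^ a with hz
        have hzo : orderOf z = 2 := by
          rw [hz, orderOf_pow, hua, Nat.gcd_eq_right (pow_dvd_pow 2 (Nat.le_succ a)),
            pow_succ, Nat.mul_div_cancel_left _ (by positivity)]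
        have hzz : z⁻¹ = z := by
          rw [inv_eq_iff_mul_eq_one, ← pow_two, ← hzo, pow_orderOf_eq_one]
        have hzfix : z ∈ fixSub α := by
          rw [mem_fixSub]
          conv_rhs => rw [← hzz]
          rw [hz, map_pow, huinv, inv_pow]
        have hzZ : z ∉ center G := fun h => by
          have := hZodd.of_dvd_nat ((center G).orderOf_dvd_natCard h)
          rw [hzo] at this
          exact absurd this (by decide)
        simp only [Set.mem_iUnion, SetLike.mem_coe, mem_centralizer_singleton_iff]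
        exact ⟨z, (hWmem z).2 ⟨Or.inl hzfix, hzZ⟩, hcomm z ((zpowers y).pow_mem hu _)⟩
    · right
      simp only [Set.mem_iUnion, SetLike.mem_coe, mem_centralizer_singleton_iff]
      exact ⟨v, (hWmem v).2 ⟨Or.inr hvI, hvZ⟩, hcomm v hv⟩
  have hG : Nat.card G ≤ k * (cm α '' (Set.univ : Set G)).ncard := by
    rw [← Set.ncard_univ G]
    exact (ncard_le_fix_mul α _).trans (Nat.mul_le_mul hk le_rfl)
  have hZcard : (center G : Set G).ncard ≤ k * m := by
    rw [← Nat.card_coe_set_eq]
    exact habel (center G) inferInstance hZinv hZc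
  rcases W.eq_empty_or_nonempty with hW | hW
  · left
    refine hG.trans (Nat.mul_le_mul le_rfl ?_)
    refine (Set.ncard_le_ncard hcover).trans (le_trans (le_of_eq ?_) hZcard)
    simp [hW]
  right
  obtain ⟨w, hwW, hwmax⟩ := W.exists_max_image
    (fun w => Nat.card (centralizer ({w} : Set G))) hW
  set C := centralizer ({w} : Set G)
  have hidx : C.index ≤ k * (k * m + k + m) := by
    refine Nat.le_of_mul_le_mul_right ?_ (Nat.card_pos (α := C))
    rw [C.index_mul_card]
    refine hG.trans ?_
    rw [mul_assoc k]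
    refine Nat.mul_le_mul le_rfl ?_
    refine (Set.ncard_le_ncard hcover).trans ((Set.ncard_union_le _ _).trans ?_)
    have h1 : (⋃ w ∈ W, (centralizer ({w} : Set G) : Set G)).ncard ≤ (k + m) * Nat.card C := by
      refine (Finset.set_ncard_biUnion_le _ _).trans ?_
      refine (Finset.sum_le_card_nsmul _ _ (Nat.card C) ?_).trans ?_
      · intro x hx
        rw [← Nat.card_coe_set_eq]
        exact hwmax x hx
      · rw [smul_eq_mul]; exact Nat.mul_le_mul hWcard le_rfl
    rw [add_assoc, add_mul]
    exact Nat.add_le_add (hZcard.trans (Nat.le_mul_of_pos_right _ Nat.card_pos)) h1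
  obtain ⟨hwfi, hwZ⟩ := (hWmem w).1 hwW
  have hwα : α w = w ∨ α w = w⁻¹ := hwfi.elim Or.inl (fun h => Or.inr h.2)
  have hCinv : ∀ g ∈ C, α g ∈ C := by
    intro g hg
    rw [mem_centralizer_singleton_iff] at hg ⊢
    have h := congrArg α hg
    rw [map_mul, map_mul] at h
    rcases hwα with e | e <;> rw [e] at h
    · exact h
    · exact (Commute.inv_right_iff.1 (show Commute (α g) w⁻¹ from h)).eq
  set N := C.normalCore with hN
  have hNinv : ∀ g ∈ N, α g ∈ N := by
    intro g hg b
    have h := hCinv _ (hg (α b))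
    rw [map_mul, map_mul, h2, map_inv, h2] at h
    exact h
  set M := centralizer (N : Set G) with hMdef
  have hMn : M.Normal := inferInstance
  have hMinv : ∀ x ∈ M, α x ∈ M := by
    intro x hx
    rw [mem_centralizer_iff] at hx ⊢
    intro n hn
    rw [← h2 n, ← map_mul, ← map_mul, hx (α n) (hNinv n hn)]
  have hwM : w ∈ M := by
    rw [mem_centralizer_iff]
    intro n hn
    have := C.normalCore_le hn
    rw [mem_centralizer_singleton_iff] at this
    exact this
  have hMN : Nat.card (M ⊓ N : Subgroup G) ≤ k * m := by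
    refine habel _ inferInstance (fun x hx => ⟨hMinv x hx.1, hNinv x hx.2⟩) ?_
    intro a ha b hb
    exact (mem_centralizer_iff.1 ha.1 b hb.2).symm
  have hNidx : N.index ≤ (k * (k * m + k + m)).factorial := by
    refine le_trans (Nat.le_of_dvd (Nat.factorial_pos _) ?_) (Nat.factorial_le hidx)
    rw [hN, normalCore_eq_ker, index_ker, index_eq_card, ← Nat.card_perm]
    exact card_subgroup_dvd_card _
  refine ⟨M, hMn, hMinv, ?_, ?_⟩
  · calc Nat.card M = Nat.card (M ⊓ N : Subgroup G) * N.relIndex M := by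
          rw [← (N.subgroupOf M).card_mul_index]
          congr 1
          rw [← inf_subgroupOf_right]
          exact (Nat.card_congr (subgroupOfEquivOfLe inf_le_right).toEquiv).trans
            (by rw [inf_comm])
      _ ≤ _ := Nat.mul_le_mul hMN ((Nat.le_of_dvd (Nat.pos_of_ne_zero index_ne_zero_of_finite)
          (relIndex_dvd_index_of_normal N M)).trans hNidx)
  · by_contra hcon
    simp only [not_exists, not_and, not_not] at hcon
    have hfix : ∀ g ∈ M, α g = g := by
      refine fixed_of_two_elements h2 hcore M hMinv fun g hg => ?_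
      obtain ⟨u, v, huv, _, hv, hvI, _, a, hua⟩ := split (alpha_cm h2 g)
      have hy : cm α g ∈ M := M.mul_mem hg (M.inv_mem (hMinv g hg))
      have : v = 1 := hcon v hvI ((zpowers_le.2 hy) hv)
      exact ⟨a, by rw [← huv, this, mul_one, hua]⟩
    refine hwZ (mem_center_of_generated hgen fun x hx => ?_)
    refine (commute_of_sq hx.1 ?_).eq
    have h := hfix _ (hMn.conj_mem w hwM x)
    rw [map_mul, map_mul, map_inv, hfix w hwM, hx.2, inv_inv] at h
    show w * x ^ 2 = x ^ 2 * w
    rw [pow_two]
    calc w * (x * x) = x * (x⁻¹ * w * x) * x := by group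
      _ = x * (x * w * x⁻¹) * x := by rw [h]
      _ = x * x * w := by group

/-- The bound, by induction on the number of inverted elements of odd order. -/
theorem exists_bound : ∀ m : ℕ, ∃ b : ℕ, ∀ (G : Type u) [Group G] [Finite G] (α : MulAut G),
    (∀ g, α (α g) = g) → closure (invSet α) = ⊤ → (invSet α).ncard ≤ m → Nat.card G ≤ b := by
  intro m
  induction m with
  | zero =>
    refine ⟨0, fun G _ _ α _ _ hm => ?_⟩
    have := (Set.ncard_pos (Set.toFinite _)).2 ⟨1, one_mem_invSet α⟩
    omega
  | succ m₀ ih =>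
    obtain ⟨b, hb⟩ := ih
    set m := m₀ + 1
    set k := m ^ m
    set q := (k * m) ^ m
    set k' := k * q
    set B := max (k' * (k' * m)) (b * (k' * m * (k' * (k' * m + k' + m)).factorial))
    set n := B * q
    refine ⟨(Finset.range (n * n + 1)).sup Subgroup.cardCommutatorBound * m,
      fun G _ _ α h2 hgen hm => ?_⟩
    -- the quotient by the centre
    have hZ : ∀ x ∈ center G, α x ∈ center G := fun x hx => by
      rw [mem_center_iff] at hx ⊢
      intro g
      rw [← h2 g, ← map_mul, ← map_mul, hx]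
    obtain ⟨β, hβ⟩ := exists_quotient_aut α (center G) hZ
    have hφ := QuotientGroup.mk'_surjective (center G)
    have hβ2 := inv_map hφ hβ h2
    have hβgen := gen_map hφ hβ hgen
    have hβm := (ncard_invSet_map_le hφ hβ h2).trans hm
    have hβk : Nat.card (fixSub β) ≤ k := by
      classical
      let rep : fixSub β → G := fun y => (hφ (y : G ⧸ center G)).choose
      have hrep : ∀ y : fixSub β, QuotientGroup.mk' (center G) (rep y) = y := fun y =>
        (hφ (y : G ⧸ center G)).choose_spec
      have hz : ∀ y : fixSub β, (rep y)⁻¹ * α (rep y) ∈ center G := fun y => by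
        rw [← QuotientGroup.eq_one_iff, ← QuotientGroup.mk'_apply, map_mul, map_inv, hβ, hrep,
          show β (y : G ⧸ center G) = y from y.2, inv_mul_cancel]
      have hperm : ∀ (y : fixSub β) (x : invSet α),
          rep y * x * (rep y)⁻¹ ∈ invSet α := fun y x => by
        refine ⟨?_, ?_⟩
        · rw [show rep y * x * (rep y)⁻¹ = MulAut.conj (rep y) (x : G) from rfl,
            MulEquiv.orderOf_eq]
          exact x.2.1
        · have hc := mem_center_iff.1 (hz y)
          rw [map_mul, map_mul, map_inv, x.2.2]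
          have e : α (rep y) = rep y * ((rep y)⁻¹ * α (rep y)) := by group
          rw [e]
          set z := (rep y)⁻¹ * α (rep y)
          calc rep y * z * (x : G)⁻¹ * (rep y * z)⁻¹
              = rep y * (z * (x : G)⁻¹) * z⁻¹ * (rep y)⁻¹ := by group
            _ = rep y * ((x : G)⁻¹ * z) * z⁻¹ * (rep y)⁻¹ := by rw [hc (x : G)⁻¹]
            _ = _ := by group
      let F : fixSub β → (invSet α → invSet α) := fun y x => ⟨_, hperm y x⟩
      have hF : Function.Injective F := by
        intro a c hac
        apply Subtype.ext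
        rw [← hrep a, ← hrep c, QuotientGroup.mk'_eq_mk']
        refine ⟨(rep a)⁻¹ * rep c, mem_center_of_generated hgen fun x hx => ?_,
          mul_inv_cancel_left _ _⟩
        have h1 : rep a * x * (rep a)⁻¹ = rep c * x * (rep c)⁻¹ :=
          congrArg Subtype.val (congrFun hac ⟨x, hx⟩)
        calc (rep a)⁻¹ * rep c * x
            = (rep a)⁻¹ * (rep c * x * (rep c)⁻¹) * rep c := by group
          _ = (rep a)⁻¹ * (rep a * x * (rep a)⁻¹) * rep c := by rw [h1]
          _ = _ := by group
      refine (Nat.card_le_card_of_injective F hF).trans ?_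
      rw [Nat.card_fun, Nat.card_coe_set_eq]
      exact (Nat.pow_le_pow_left hm _).trans (Nat.pow_le_pow_right (by omega) hm)
    -- its largest normal 2-subgroup
    set X := G ⧸ center G
    haveI hQn : (Cfsg.pCore 2 X).Normal := Cfsg.Agent.H19.pCore_normal 2 X
    haveI hQc : (Cfsg.pCore 2 X).Characteristic := Cfsg.Agent.H19.pCore_characteristic 2 X
    haveI : Fact (Nat.Prime 2) := ⟨Nat.prime_two⟩
    have hQp : IsPGroup 2 (Cfsg.pCore 2 X) := Cfsg.Agent.H19.pCore_isPGroup 2
    have hQinv : ∀ x ∈ Cfsg.pCore 2 X, β x ∈ Cfsg.pCore 2 X := fun x hx => by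
      rw [← hQc.fixed β] at hx
      exact hx
    have hQZ : Cfsg.pCore 2 X ⊓ center X = ⊥ := by
      rw [eq_bot_iff]
      rintro y ⟨hyQ, hyZ⟩
      obtain ⟨g, rfl⟩ := hφ y
      obtain ⟨i, hi⟩ := IsPGroup.iff_orderOf.1 hQp ⟨_, hyQ⟩
      rw [← Subgroup.orderOf_coe] at hi
      rw [mem_bot, QuotientGroup.mk'_apply, QuotientGroup.eq_one_iff]
      refine mem_center_of_generated hgen fun x hx => ?_
      have hgx : g * x * g⁻¹ * x⁻¹ ∈ center G := by
        rw [← QuotientGroup.eq_one_iff, ← QuotientGroup.mk'_apply]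
        simp only [map_mul, map_inv]
        rw [(mem_center_iff.1 hyZ (QuotientGroup.mk' _ x)).symm, mul_inv_cancel_right, mul_inv_cancel]
      set z := g * x * g⁻¹ * x⁻¹ with hzdef
      have hzc := mem_center_iff.1 hgx
      have hconjx : g * x * g⁻¹ = z * x := by rw [hzdef]; group
      have hz1 : z ^ orderOf x = 1 := by
        have : (g * x * g⁻¹) ^ orderOf x = 1 := by rw [conj_pow, pow_orderOf_eq_one]; group
        rw [hconjx, (show Commute z x from (hzc x).symm).mul_pow, pow_orderOf_eq_one, mul_one] at this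
        exact this
      have hpw : ∀ j : ℕ, g ^ j * x * (g ^ j)⁻¹ = z ^ j * x := by
        intro j
        induction j with
        | zero => simp
        | succ j ihj =>
          calc g ^ (j + 1) * x * (g ^ (j + 1))⁻¹ = g * (g ^ j * x * (g ^ j)⁻¹) * g⁻¹ := by
                rw [pow_succ']; group
            _ = g * (z ^ j * x) * g⁻¹ := by rw [ihj]
            _ = z ^ j * (g * x * g⁻¹) := by
                have := ((show Commute z g from (hzc g).symm).pow_left j).eq
                calc g * (z ^ j * x) * g⁻¹ = (g * z ^ j) * x * g⁻¹ := by group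
                  _ = (z ^ j * g) * x * g⁻¹ := by rw [this]
                  _ = _ := by simp only [mul_assoc]
            _ = _ := by rw [hconjx, pow_succ, ← mul_assoc]
      have hz2 : z ^ (2 ^ i) = 1 := by
        have hgz : g ^ (2 ^ i) ∈ center G := by
          rw [← QuotientGroup.eq_one_iff, ← QuotientGroup.mk'_apply, map_pow, ← hi,
            pow_orderOf_eq_one]
        have h := hpw (2 ^ i)
        rw [(mem_center_iff.1 hgz x).symm, mul_inv_cancel_right] at h
        exact mul_eq_right.1 h.symm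
      have hz : z = 1 := orderOf_eq_one_iff.1 (Nat.eq_one_of_dvd_coprimes
        ((Nat.coprime_two_left.2 hx.1).pow_left i) (orderOf_dvd_of_pow_eq_one hz2)
        (orderOf_dvd_of_pow_eq_one hz1))
      rw [hz, one_mul] at hconjx
      exact mul_inv_eq_iff_eq_mul.1 hconjx
    have hQcard : Nat.card (Cfsg.pCore 2 X) ≤ q := by
      refine (card_two_subgroup hβ2 hβgen _ hQp hQinv hQZ).trans ?_
      refine (Nat.pow_le_pow_left (Nat.mul_le_mul hβk hβm) _).trans
        (Nat.pow_le_pow_right ?_ hβm)
      exact Nat.mul_pos (pow_pos (Nat.succ_pos _) _) (Nat.succ_pos _)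
    obtain ⟨γ, hγ⟩ := exists_quotient_aut β (Cfsg.pCore 2 X) hQinv
    have hψ := QuotientGroup.mk'_surjective (Cfsg.pCore 2 X)
    have hγ2 := inv_map hψ hγ hβ2
    have hγgen := gen_map hψ hγ hβgen
    have hγm := (ncard_invSet_map_le hψ hγ hβ2).trans hβm
    have hγk : Nat.card (fixSub γ) ≤ k' := by
      refine (card_fix_map_le hψ hγ).trans (Nat.mul_le_mul hβk ?_)
      rw [QuotientGroup.ker_mk']
      exact hQcard
    have hH : Nat.card (X ⧸ Cfsg.pCore 2 X) ≤ B := by
      rcases core_step hγ2 hγgen (Cfsg.Agent.H19.pCore_quotient_pCore 2) hγk hγm with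
        h | ⟨M, hMn, hMinv, hMcard, v, hv, hvM, hv1⟩
      · exact h.trans (le_max_left _ _)
      · haveI := hMn
        obtain ⟨δ, hδ⟩ := exists_quotient_aut γ M hMinv
        have hχ := QuotientGroup.mk'_surjective M
        have hlt := ncard_invSet_map_lt hχ hδ hγ2 hv hv1
          (by rwa [QuotientGroup.mk'_apply, QuotientGroup.eq_one_iff])
        have := hb _ δ (inv_map hχ hδ hγ2) (gen_map hχ hδ hγgen) (by omega)
        rw [card_eq_card_quotient_mul_card_subgroup M]
        exact (Nat.mul_le_mul this hMcard).trans (le_max_right _ _)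
    have hX : Nat.card X ≤ n := by
      rw [card_eq_card_quotient_mul_card_subgroup (Cfsg.pCore 2 X)]
      exact Nat.mul_le_mul hH hQcard
    -- Schur, and the abelian quotient
    have hcs : Nat.card (commutatorSet G) ≤ n * n := by
      have hsub : commutatorSet G ⊆
          Set.range (fun p : X × X => ⁅Quotient.out p.1, Quotient.out p.2⁆) := by
        rintro _ ⟨g₁, g₂, rfl⟩
        refine ⟨(QuotientGroup.mk g₁, QuotientGroup.mk g₂), ?_⟩
        obtain ⟨z₁, hz₁⟩ := QuotientGroup.mk_out_eq_mul (center G) g₁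
        obtain ⟨z₂, hz₂⟩ := QuotientGroup.mk_out_eq_mul (center G) g₂
        simp only [hz₁, hz₂, commutatorElement_def]
        have c₁ := mem_center_iff.1 z₁.2
        have c₂ := mem_center_iff.1 z₂.2
        calc g₁ * z₁ * (g₂ * z₂) * (g₁ * z₁)⁻¹ * (g₂ * z₂)⁻¹
            = g₁ * (z₁ * g₂) * z₂ * ((z₁ : G)⁻¹ * g₁⁻¹) * ((z₂ : G)⁻¹ * g₂⁻¹) := by group
          _ = g₁ * (g₂ * z₁) * z₂ * ((z₁ : G)⁻¹ * g₁⁻¹) * ((z₂ : G)⁻¹ * g₂⁻¹) := by rw [c₁ g₂]
          _ = g₁ * g₂ * (z₁ * z₂) * ((z₁ : G)⁻¹ * g₁⁻¹) * ((z₂ : G)⁻¹ * g₂⁻¹) := by group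
          _ = g₁ * g₂ * (z₂ * z₁) * ((z₁ : G)⁻¹ * g₁⁻¹) * ((z₂ : G)⁻¹ * g₂⁻¹) := by rw [c₂ z₁]
          _ = g₁ * g₂ * ((z₂ : G) * g₁⁻¹) * ((z₂ : G)⁻¹ * g₂⁻¹) := by group
          _ = g₁ * g₂ * (g₁⁻¹ * z₂) * ((z₂ : G)⁻¹ * g₂⁻¹) := by rw [c₂ g₁⁻¹]
          _ = _ := by group
      refine (Nat.card_mono (Set.toFinite _) hsub).trans ?_
      refine (Finite.card_range_le _).trans ?_
      rw [Nat.card_prod]
      exact Nat.mul_le_mul hX hX
    have hD : Nat.card (commutator G) ≤
        (Finset.range (n * n + 1)).sup Subgroup.cardCommutatorBound :=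
      (card_commutator_le_of_finite_commutatorSet G).trans
        (Finset.le_sup (Finset.mem_range.2 (Nat.lt_succ_of_le hcs)))
    obtain ⟨ε, hε⟩ := exists_quotient_aut α (commutator G) (fun x hx => by
      haveI : (commutator G).Characteristic := inferInstance
      rw [← (inferInstance : (commutator G).Characteristic).fixed α] at hx
      exact hx)
    have hA := QuotientGroup.mk'_surjective (commutator G)
    have hAb : Nat.card (G ⧸ commutator G) ≤ m := by
      have hcomm : ∀ a c : G ⧸ commutator G, a * c = c * a := fun a c => by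
        obtain ⟨x, rfl⟩ := hA a
        obtain ⟨y, rfl⟩ := hA c
        rw [← map_mul, ← map_mul, QuotientGroup.mk'_eq_mk']
        exact ⟨(x * y)⁻¹ * (y * x),
          (show ⁅y⁻¹, x⁻¹⁆ = (x * y)⁻¹ * (y * x) by rw [commutatorElement_def]; group) ▸
            commutator_mem_commutator (mem_top _) (mem_top _),
          mul_inv_cancel_left _ _⟩
      have hall : (Set.univ : Set (G ⧸ commutator G)) ⊆ invSet ε := by
        rintro a -
        have ha : a ∈ closure (invSet ε) := (gen_map hA hε hgen) ▸ mem_top a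
        induction ha using Subgroup.closure_induction with
        | mem x hx => exact hx
        | one => exact one_mem_invSet ε
        | mul x y _ _ hx hy =>
          refine ⟨(hx.1.mul hy.1).of_dvd_nat (Commute.orderOf_mul_dvd_mul_orderOf (hcomm x y)), ?_⟩
          rw [map_mul, hx.2, hy.2, mul_inv_rev, hcomm]
        | inv x _ hx =>
          refine ⟨by rw [orderOf_inv]; exact hx.1, ?_⟩
          rw [map_inv, hx.2]
      rw [← Set.ncard_univ]
      exact (Set.ncard_le_ncard hall).trans ((ncard_invSet_map_le hA hε h2).trans hm)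
    calc Nat.card G = Nat.card (G ⧸ commutator G) * Nat.card (commutator G) :=
          card_eq_card_quotient_mul_card_subgroup _
      _ ≤ m * _ := Nat.mul_le_mul hAb hD
      _ = _ := mul_comm _ _

/-- The bound in terms of the generation by `c * (α c)⁻¹`. -/
theorem exists_bound_fun : ∃ f : ℕ → ℕ, ∀ (G : Type u) [Group G] [Finite G] (α : MulAut G),
    orderOf α = 2 → closure (Set.range (fun c : G => c * (α c)⁻¹)) = ⊤ →
      Nat.card G ≤ f (Nat.card {g : G // Odd (orderOf g) ∧ α g = g⁻¹}) := by
  choose f hf using exists_bound.{u}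
  refine ⟨f, fun G _ _ α hα hG => ?_⟩
  have h2 : ∀ g, α (α g) = g := fun g => by
    have := DFunLike.congr_fun (pow_orderOf_eq_one α) g
    rw [hα, pow_two] at this
    exact this
  have hgen : closure (invSet α) = ⊤ := by
    rw [eq_top_iff, ← Cfsg.Agent.H64.Zip.closure_iterate_commutator α hG (Nat.card G + 1)
      (Nat.le_add_left 1 _)]
    refine closure_mono ?_
    rintro _ ⟨g, rfl⟩
    have hit : ∀ j : ℕ, (fun c : G => c * (α c)⁻¹)^[j + 1] g = cm α g ^ (2 ^ j) := by
      intro j
      induction j with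
      | zero => simp [cm]
      | succ j ih =>
        rw [Function.iterate_succ_apply', ih, map_pow, alpha_cm h2, inv_pow, inv_inv, ← pow_add,
          pow_succ, Nat.mul_two]
    rw [hit]
    refine ⟨?_, by rw [map_pow, alpha_cm h2, inv_pow]⟩
    obtain ⟨a, b, hb, hab⟩ := Nat.exists_eq_two_pow_mul_odd (n := orderOf (cm α g))
      (orderOf_pos _).ne'
    refine hb.of_dvd_nat (orderOf_dvd_of_pow_eq_one ?_)
    rw [← pow_mul, ← orderOf_dvd_iff_pow_eq_one, hab]
    refine Nat.mul_dvd_mul_right (pow_dvd_pow 2 ?_) b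
    calc a ≤ 2 ^ a := Nat.lt_two_pow_self.le
      _ ≤ 2 ^ a * b := Nat.le_mul_of_pos_right _ hb.pos
      _ = orderOf (cm α g) := hab.symm
      _ ≤ Nat.card G := orderOf_le_card
  exact hf _ G α h2 hgen (le_of_eq (Nat.card_coe_set_eq (invSet α)).symm)

end Cfsg.Agent.H64.Inverted
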